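-- Team project OELP (S5988), package [NEG1] (helper52): an isometry with square `-1`, `-1` a
-- square in `F`: every invariant nondegenerate subspace is of plus type.
import Mathlib
import Cfsg.Agent.Lib.Helper44.OElp.Defs

set_option autoImplicit false
open scoped MatrixGroups
open Matrix

namespace Cfsg.Agent.Lib.Helper52.OElp

open Cfsg.Agent.Lib.Helper23.OHyp

universe u

section

variable {F : Type u} [Field F] {ι : Type} [Fintype ι] [DecidableEq ι]

/-- a totally isotropic subspace of a nondegenerate space has at most half its dimension -/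
theorem iso_le_half (Q : (ι → F) → F) (hQ : Cfsg.Geo.IsNondegenerateQuadraticForm Q)
    (W U : Submodule F (ι → F)) (hUW : U ≤ W) (hnd : Nd Q W)
    (hiso : ∀ u ∈ U, ∀ u' ∈ U, QuadraticMap.polar Q u u' = 0) :
    2 * Module.finrank F U ≤ Module.finrank F W := by
  have hbl := hQ.polar_bilinear
  let Bf : LinearMap.BilinForm F (ι → F) := LinearMap.mk₂ F (QuadraticMap.polar Q) hbl.add_left
    (fun c x w => by rw [hbl.smul_left, smul_eq_mul]) hbl.add_right
    (fun c w x => by rw [hbl.smul_right, smul_eq_mul])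
  let BD : LinearMap.BilinForm F ↥W := Bf.restrict W
  have hBDnd : BD.Nondegenerate := by
    constructor
    · intro a ha
      by_contra hne
      obtain ⟨-, x, hx, hxne⟩ := hnd a.1 a.2 (fun h => hne (Subtype.ext h))
      exact hxne (ha ⟨x, hx⟩)
    · intro b hb
      by_contra hne
      obtain ⟨⟨x, hx, hxne⟩, -⟩ := hnd b.1 b.2 (fun h => hne (Subtype.ext h))
      exact hxne (hb ⟨x, hx⟩)
  have hU'dim : Module.finrank F ↥(U.comap W.subtype) = Module.finrank F U :=
    LinearEquiv.finrank_eq (Submodule.comapSubtypeEquivOfLe hUW)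
  have hle : U.comap W.subtype ≤ BD.orthogonal (U.comap W.subtype) := by
    intro a ha
    rw [LinearMap.BilinForm.mem_orthogonal_iff]
    intro n hn
    exact hiso n.1 hn a.1 ha
  have h1 := Submodule.finrank_mono hle
  rw [LinearMap.BilinForm.finrank_orthogonal hBDnd, hU'dim] at h1
  have h2 := Submodule.finrank_mono hUW
  omega

/-- a subspace on which `Q` vanishes is totally isotropic -/
theorem polar_zero_of_sing (Q : (ι → F) → F) (U : Submodule F (ι → F))
    (hU : ∀ u ∈ U, Q u = 0) : ∀ u ∈ U, ∀ u' ∈ U, QuadraticMap.polar Q u u' = 0 := by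
  intro u hu u' hu'
  unfold QuadraticMap.polar
  rw [hU _ (U.add_mem hu hu'), hU u hu, hU u' hu']
  ring

end

/-- [NEG1] -/
theorem pkgNeg1 : Cfsg.Agent.Lib.Helper44.OElp.PkgNeg1.{u} := by
  intro F _ ι _ _ Q hQ h2 s hs x hiso hxx W hInv hNd
  classical
  have hxW : ∀ w ∈ W, x *ᵥ w ∈ W := by
    intro w hw
    have : Matrix.toLin' x w ∈ W.map (Matrix.toLin' x) := Submodule.mem_map_of_mem hw
    rw [Matrix.toLin'_apply] at this
    exact hInv this
  have hxx' : ∀ w : ι → F, x *ᵥ (x *ᵥ w) = -w := by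
    intro w
    rw [Matrix.mulVec_mulVec, hxx, Matrix.neg_mulVec, Matrix.one_mulVec]
  -- the two eigenspaces
  obtain ⟨Wp, hWp⟩ : ∃ Wp : Submodule F (ι → F), ∀ v, v ∈ Wp ↔ v ∈ W ∧ x *ᵥ v = s • v := by
    refine ⟨W ⊓ LinearMap.ker (Matrix.toLin' x - s • (1 : (ι → F) →ₗ[F] (ι → F))), fun v => ?_⟩
    rw [Submodule.mem_inf, LinearMap.mem_ker, LinearMap.sub_apply, Matrix.toLin'_apply,
      LinearMap.smul_apply, Module.End.one_apply, sub_eq_zero]
  obtain ⟨Wm, hWm⟩ : ∃ Wm : Submodule F (ι → F), ∀ v, v ∈ Wm ↔ v ∈ W ∧ x *ᵥ v = (-s) • v := by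
    refine ⟨W ⊓ LinearMap.ker (Matrix.toLin' x - (-s) • (1 : (ι → F) →ₗ[F] (ι → F))),
      fun v => ?_⟩
    rw [Submodule.mem_inf, LinearMap.mem_ker, LinearMap.sub_apply, Matrix.toLin'_apply,
      LinearMap.smul_apply, Module.End.one_apply, sub_eq_zero]
  have hsing : ∀ (c : F) (v : ι → F), c * c = -1 → x *ᵥ v = c • v → Q v = 0 := by
    intro c v hc hv
    have h1 : Q v = -Q v := by
      conv_lhs => rw [← hiso v, hv, hQ.smul, pow_two, hc]
      ring
    have h3 : (2 : F) * Q v = 0 := by linear_combination h1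
    rcases mul_eq_zero.mp h3 with h | h
    · exact absurd h h2
    · exact h
  have hpS : ∀ v ∈ Wp, Q v = 0 := fun v hv => hsing s v hs ((hWp v).mp hv).2
  have hmS : ∀ v ∈ Wm, Q v = 0 := fun v hv =>
    hsing (-s) v (by rw [neg_mul_neg, hs]) ((hWm v).mp hv).2
  have hpW : Wp ≤ W := fun v hv => ((hWp v).mp hv).1
  have hmW : Wm ≤ W := fun v hv => ((hWm v).mp hv).1
  have hsup : W ≤ Wp ⊔ Wm := by
    intro w hw
    have e : w = (2 : F)⁻¹ • (w - s • (x *ᵥ w)) + (2 : F)⁻¹ • (w + s • (x *ᵥ w)) := by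
      rw [← smul_add]
      have : w - s • (x *ᵥ w) + (w + s • (x *ᵥ w)) = (2 : F) • w := by
        rw [two_smul]; abel
      rw [this, smul_smul, inv_mul_cancel₀ h2, one_smul]
    rw [e]
    refine Submodule.add_mem_sup (Wp.smul_mem _ ?_) (Wm.smul_mem _ ?_)
    · rw [hWp]
      refine ⟨W.sub_mem hw (W.smul_mem _ (hxW w hw)), ?_⟩
      rw [Matrix.mulVec_sub, Matrix.mulVec_smul, hxx', smul_sub, smul_smul, hs]
      simp only [smul_neg, neg_smul, one_smul, sub_neg_eq_add, neg_neg]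
      abel
    · rw [hWm]
      refine ⟨W.add_mem hw (W.smul_mem _ (hxW w hw)), ?_⟩
      rw [Matrix.mulVec_add, Matrix.mulVec_smul, hxx', smul_add, smul_smul, neg_mul, hs]
      simp only [smul_neg, neg_smul, one_smul, neg_neg]
      abel
  have hd1 : Module.finrank F W ≤ Module.finrank F Wp + Module.finrank F Wm :=
    (Submodule.finrank_mono hsup).trans (Submodule.finrank_add_le_finrank_add_finrank Wp Wm)
  have hd2 := iso_le_half Q hQ W Wp hpW hNd (polar_zero_of_sing Q Wp hpS)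
  have hd3 := iso_le_half Q hQ W Wm hmW hNd (polar_zero_of_sing Q Wm hmS)
  exact ⟨Wp, hpW, hpS, by omega⟩

example : Cfsg.Agent.Lib.Helper44.OElp.PkgNeg1.{0} := pkgNeg1
example : Cfsg.Agent.Lib.Helper44.OElp.PkgNeg1.{3} := pkgNeg1

end Cfsg.Agent.Lib.Helper52.OElp
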