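-- Team project OELP (S5988), package [PLUSQE] (helper52): the form `Σ xᵢ yᵢ` is a nondegenerate
-- quadratic form of plus type, in any characteristic.
import Mathlib
import Cfsg.Agent.Lib.Helper12.OHyp.EBlkOdd
import Cfsg.Agent.Lib.Helper44.OElp.Defs

set_option autoImplicit false
open scoped MatrixGroups
open Matrix

namespace Cfsg.Agent.Lib.Helper52.OElp

open Cfsg.Agent.Lib.Helper23.OHyp

universe u

/-- The embedding of the first half. -/
noncomputable def inlMapE (F : Type u) [Field F] (d : ℕ) :
    (Fin d → F) →ₗ[F] (Fin d ⊕ Fin d → F) where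
  toFun f := Sum.elim f 0
  map_add' f g := by
    funext z
    rcases z with k | k <;> simp
  map_smul' c f := by
    funext z
    rcases z with k | k <;> simp

theorem inlMapE_injective (F : Type u) [Field F] (d : ℕ) : Function.Injective (inlMapE F d) := by
  intro f g h
  funext k
  have := congrFun h (Sum.inl k)
  simpa [inlMapE] using this

/-- [PLUSQE] -/
theorem pkgPlusQE : Cfsg.Agent.Lib.Helper44.OElp.PkgPlusQE.{u} := by
  intro F _ d
  refine ⟨Cfsg.Agent.Lib.Helper12.OHyp.nondeg_quadFormPlus d, ?_⟩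
  refine ⟨LinearMap.range (inlMapE F d), le_top, ?_, ?_⟩
  · intro w hw
    obtain ⟨f, rfl⟩ := hw
    simp [Cfsg.quadFormPlus, inlMapE]
  · rw [LinearMap.finrank_range_of_inj (inlMapE_injective F d)]
    simp
    omega

example : Cfsg.Agent.Lib.Helper44.OElp.PkgPlusQE.{0} := pkgPlusQE
example : Cfsg.Agent.Lib.Helper44.OElp.PkgPlusQE.{3} := pkgPlusQE

end Cfsg.Agent.Lib.Helper52.OElp
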