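-- Team project OELP (S5988), package [NEG3] (helper52): an isometry with square `-1`, `-1` a
-- non-square in `F`: the type of an invariant nondegenerate subspace is given by its dimension
-- mod 4, and there are invariant nondegenerate subspaces of every even dimension.
import Mathlib
import Cfsg.Agent.Lib.Helper44.OElp.Defs
import Cfsg.Agent.Lib.Helper87.OHyp.Perp
import Cfsg.Agent.Lib.Helper1.OHyp.Sum

set_option autoImplicit false
open scoped MatrixGroups
open Matrix

namespace Cfsg.Agent.Lib.Helper52.OElp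

open Cfsg.Agent.Lib.Helper23.OHyp

universe u

/-- [NEG3] -/
theorem pkgNeg3 : Cfsg.Agent.Lib.Helper44.OElp.PkgNeg3.{u} := by
  intro F _ _ ι _ _ Q hQ h2 hns x hiso hxx
  classical
  have hbl := hQ.polar_bilinear
  have hdet : IsUnit x.det := by
    have h1 : x.det * x.det = (-1 : Matrix ι ι F).det := by rw [← Matrix.det_mul, hxx]
    have h3 : (-1 : Matrix ι ι F).det ≠ 0 := by
      rw [Matrix.det_neg, Matrix.det_one, mul_one]
      exact pow_ne_zero _ (neg_ne_zero.mpr one_ne_zero)
    rw [isUnit_iff_ne_zero]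
    intro h0
    rw [h0, mul_zero] at h1
    exact h3 h1.symm
  have hxx' : ∀ w : ι → F, x *ᵥ (x *ᵥ w) = -w := by
    intro w
    rw [Matrix.mulVec_mulVec, hxx, Matrix.neg_mulVec, Matrix.one_mulVec]
  have hQ0 : Q 0 = 0 := by
    have := hQ.smul 0 0
    simpa using this
  have hpolx : ∀ u v, QuadraticMap.polar Q (x *ᵥ u) (x *ᵥ v) = QuadraticMap.polar Q u v := by
    intro u v
    unfold QuadraticMap.polar
    rw [← Matrix.mulVec_add, hiso, hiso, hiso]
  have hneg : ∀ u v, QuadraticMap.polar Q u (-v) = -QuadraticMap.polar Q u v := by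
    intro u v
    have := hbl.smul_right (-1) u v
    simpa using this
  have hB0 : ∀ v, QuadraticMap.polar Q v (x *ᵥ v) = 0 := by
    intro v
    have h1 : QuadraticMap.polar Q v (x *ᵥ v) = -QuadraticMap.polar Q v (x *ᵥ v) := by
      conv_lhs => rw [← hpolx, hxx', hneg, QuadraticMap.polar_comm]
    have h3 : (2 : F) * QuadraticMap.polar Q v (x *ᵥ v) = 0 := by linear_combination h1
    exact (mul_eq_zero.mp h3).resolve_left h2
  have hQab : ∀ (a b : F) (v : ι → F), Q (a • v + b • (x *ᵥ v)) = (a ^ 2 + b ^ 2) * Q v := by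
    intro a b v
    have h1 : Q (a • v + b • (x *ᵥ v)) = Q (a • v) + Q (b • (x *ᵥ v)) +
        QuadraticMap.polar Q (a • v) (b • (x *ᵥ v)) := by
      unfold QuadraticMap.polar
      ring
    rw [h1, hQ.smul, hQ.smul, hiso, hbl.smul_left, hbl.smul_right, hB0]
    ring
  have hsq : ∀ a b : F, a ^ 2 + b ^ 2 = 0 → a = 0 ∧ b = 0 := by
    intro a b hab
    by_cases hb : b = 0
    · rw [hb] at hab
      have ha : a = 0 := by simpa using hab
      exact ⟨ha, hb⟩
    · exfalso
      apply hns
      refine ⟨a / b, ?_⟩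
      field_simp
      linear_combination -hab
  have hxW : ∀ W : Submodule F (ι → F), Inv x W → ∀ w ∈ W, x *ᵥ w ∈ W := by
    intro W hInv w hw
    have : Matrix.toLin' x w ∈ W.map (Matrix.toLin' x) := Submodule.mem_map_of_mem hw
    rw [Matrix.toLin'_apply] at this
    exact hInv this
  have hbotInv : Inv x (⊥ : Submodule F (ι → F)) := by
    unfold Cfsg.Agent.Lib.Helper23.OHyp.Inv
    rw [Submodule.map_bot]
  have hbotNd : Nd Q (⊥ : Submodule F (ι → F)) := by
    intro w hw hne
    exact absurd ((Submodule.mem_bot F).mp hw) hne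
  have main : ∀ n : ℕ, ∀ W : Submodule F (ι → F), Module.finrank F W = n → Inv x W → Nd Q W →
      Even n ∧ (Plus Q W ↔ 4 ∣ n) ∧
      ∀ m : ℕ, Even m → m ≤ n → ∃ W' : Submodule F (ι → F), W' ≤ W ∧ Inv x W' ∧ Nd Q W' ∧
        Module.finrank F W' = m := by
    intro n
    induction n using Nat.strong_induction_on with
    | _ n ih =>
    intro W hn hInv hNd
    rcases Nat.eq_zero_or_pos n with hn0 | hnpos
    · subst hn0
      refine ⟨⟨0, rfl⟩, ?_, ?_⟩
      · refine ⟨fun _ => dvd_zero 4, fun _ => ⟨⊥, bot_le, ?_, ?_⟩⟩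
        · intro w hw
          rw [(Submodule.mem_bot F).mp hw]
          exact hQ0
        · rw [finrank_bot, hn]
      · intro m hm hle
        have hm0 : m = 0 := by omega
        subst hm0
        exact ⟨⊥, bot_le, hbotInv, hbotNd, finrank_bot F _⟩
    · have hWne : W ≠ ⊥ := by
        intro h
        rw [h, finrank_bot] at hn
        omega
      obtain ⟨w0, hw0, hw0ne⟩ := Submodule.exists_mem_ne_zero_of_ne_bot hWne
      obtain ⟨v, hvW, hQv⟩ : ∃ v ∈ W, Q v ≠ 0 := by
        by_contra hcon
        push Not at hcon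
        obtain ⟨⟨y, hy, hyne⟩, -⟩ := hNd w0 hw0 hw0ne
        apply hyne
        unfold QuadraticMap.polar
        rw [hcon _ (W.add_mem hy hw0), hcon y hy, hcon w0 hw0]
        ring
      -- the invariant anisotropic plane
      obtain ⟨P, hPdef⟩ : ∃ P : Submodule F (ι → F), P = Submodule.span F {v, x *ᵥ v} :=
        ⟨_, rfl⟩
      have hPmem : ∀ w, w ∈ P ↔ ∃ a b : F, a • v + b • (x *ᵥ v) = w := by
        intro w
        rw [hPdef, Submodule.mem_span_pair]
      have hPW : P ≤ W := by
        intro w hw
        obtain ⟨a, b, rfl⟩ := (hPmem w).mp hw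
        exact W.add_mem (W.smul_mem _ hvW) (W.smul_mem _ (hxW W hInv v hvW))
      have hPInv : Inv x P := by
        unfold Cfsg.Agent.Lib.Helper23.OHyp.Inv
        rintro _ ⟨w, hw, rfl⟩
        obtain ⟨a, b, rfl⟩ := (hPmem w).mp hw
        rw [hPmem]
        refine ⟨-b, a, ?_⟩
        rw [Matrix.toLin'_apply, Matrix.mulVec_add, Matrix.mulVec_smul, Matrix.mulVec_smul, hxx']
        simp only [smul_neg, neg_smul]
        abel
      have hPan : ∀ w ∈ P, w ≠ 0 → Q w ≠ 0 := by
        intro w hw hne hQw
        obtain ⟨a, b, rfl⟩ := (hPmem w).mp hw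
        rw [hQab] at hQw
        rcases mul_eq_zero.mp hQw with h | h
        · obtain ⟨ha, hb⟩ := hsq a b h
          apply hne
          rw [ha, hb]
          simp
        · exact hQv h
      have hPNd : Nd Q P := by
        intro w hw hne
        have h1 : QuadraticMap.polar Q w w ≠ 0 := by
          have e : QuadraticMap.polar Q w w = 2 * Q w := by
            unfold QuadraticMap.polar
            rw [← two_smul F w, hQ.smul]
            ring
          rw [e]
          exact mul_ne_zero h2 (hPan w hw hne)
        exact ⟨⟨w, hw, h1⟩, ⟨w, hw, h1⟩⟩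
      have hPdim : Module.finrank F P = 2 := by
        have hli : LinearIndependent F ![v, x *ᵥ v] := by
          rw [LinearIndependent.pair_iff]
          intro a b hab
          have h1 := hQab a b v
          rw [hab, hQ0] at h1
          rcases mul_eq_zero.mp h1.symm with h | h
          · exact hsq a b h
          · exact absurd h hQv
        have h3 := finrank_span_eq_card hli
        rw [Matrix.range_cons, Matrix.range_cons, Matrix.range_empty, Set.union_empty,
          Set.singleton_union] at h3
        rw [hPdef, h3]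
        simp
      have hPnotPlus : ¬ Plus Q P := by
        rintro ⟨U, hUP, hUs, hUd⟩
        have hU1 : Module.finrank F U = 1 := by omega
        have hUne : U ≠ ⊥ := by
          intro h
          rw [h, finrank_bot] at hU1
          omega
        obtain ⟨u, hu, hune⟩ := Submodule.exists_mem_ne_zero_of_ne_bot hUne
        exact hPan u (hUP hu) hune (hUs u hu)
      obtain ⟨W', hW'W, hW'Inv, hW'Nd, hPerp, hsup, hdim⟩ :=
        Cfsg.Agent.Lib.Helper87.OHyp.pkgPerp F ι Q hQ x hiso hdet W P hPW hInv hPInv hNd hPNd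
      have hn' : Module.finrank F W' = n - 2 := by omega
      have hn2 : 2 ≤ n := by omega
      obtain ⟨hev', hplus', hsub'⟩ := ih (n - 2) (by omega) W' hn' hW'Inv hW'Nd
      have hsum := Cfsg.Agent.Lib.Helper1.OHyp.pkgSum F ι Q hQ h2 P W' hPNd hW'Nd hPerp
      have hevn : Even n := by
        obtain ⟨k, hk⟩ := hev'
        exact ⟨k + 1, by omega⟩
      refine ⟨hevn, ?_, ?_⟩
      · have h3 := hsum.2.2 (by rw [hPdim]; exact even_two) (by rw [hn']; exact hev')
        rw [hsup] at h3
        rw [h3, hplus']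
        obtain ⟨k, hk⟩ := hev'
        constructor
        · intro h4
          have h5 : ¬ 4 ∣ n - 2 := fun h => hPnotPlus (h4.mpr h)
          omega
        · intro h4
          constructor
          · intro h
            exact absurd h hPnotPlus
          · intro h
            exfalso
            omega
      · intro m hm hle
        rcases Nat.eq_zero_or_pos m with hm0 | hmpos
        · subst hm0
          exact ⟨⊥, bot_le, hbotInv, hbotNd, finrank_bot F _⟩
        · obtain ⟨k, hk⟩ := hm
          obtain ⟨W'', hW''W', hW''Inv, hW''Nd, hW''dim⟩ :=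
            hsub' (m - 2) ⟨k - 1, by omega⟩ (by omega)
          have hPerp'' : Perp Q P W'' := fun u hu w hw => hPerp u hu w (hW''W' hw)
          have hsum'' :=
            Cfsg.Agent.Lib.Helper1.OHyp.pkgSum F ι Q hQ h2 P W'' hPNd hW''Nd hPerp''
          refine ⟨P ⊔ W'', sup_le hPW (hW''W'.trans hW'W), ?_, hsum''.1, ?_⟩
          · unfold Cfsg.Agent.Lib.Helper23.OHyp.Inv
            rw [Submodule.map_sup]
            exact sup_le_sup hPInv hW''Inv
          · rw [hsum''.2.1, hPdim, hW''dim]
            omega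
  intro W hInv hNd
  obtain ⟨-, h1, h2'⟩ := main _ W rfl hInv hNd
  exact ⟨h1, h2'⟩

example : Cfsg.Agent.Lib.Helper44.OElp.PkgNeg3.{0} := pkgNeg3
example : Cfsg.Agent.Lib.Helper44.OElp.PkgNeg3.{3} := pkgNeg3

end Cfsg.Agent.Lib.Helper52.OElp
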