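-- Team project OELP (S5988), package [R2] (helper52): the case `r = 2`, `q` odd, assembled from
-- [INVOLM], [NEG1], [NEG3], [OM1], [OM2A], [OM2B], [SCAL], [PLUSQE].
import Mathlib
import Cfsg.Agent.Lib.Helper44.OElp.Defs
import Cfsg.Agent.Lib.Helper55.OEll.Defs
import Cfsg.Agent.Lib.Helper70.OPar.Defs

set_option autoImplicit false
open scoped MatrixGroups
open Matrix

namespace Cfsg.Agent.Lib.Helper52.OElp

open Cfsg.Agent.Lib.Helper23.OHyp Cfsg.Agent.Lib.Helper44.OElp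

universe u

/-- [R2] -/
theorem pkgR2_of (hInvol : Cfsg.Agent.Lib.Helper55.OEll.PkgInvolM.{u}) (hN1 : PkgNeg1.{u})
    (hN3 : PkgNeg3.{u}) (hOm1 : Cfsg.Agent.Lib.Helper70.OPar.PkgOm1.{u})
    (hOm2A : Cfsg.Agent.Lib.Helper70.OPar.PkgOm2A.{u})
    (hOm2B : Cfsg.Agent.Lib.Helper70.OPar.PkgOm2B.{u})
    (hS : Cfsg.Agent.Lib.Helper70.OPar.PkgScal.{u}) (hPQ : PkgPlusQE.{u}) : PkgR2.{u} := by
  intro F _ _ h2F d m hd hm2 hmev hmd
  obtain ⟨hQ, -⟩ := hPQ F d
  obtain ⟨Q, hQdef⟩ : ∃ Q : (Fin d ⊕ Fin d → F) → F, Q = Cfsg.quadFormPlus d F := ⟨_, rfl⟩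
  rw [← hQdef] at hQ ⊢
  have hne : Nonempty (Fin d ⊕ Fin d) := ⟨Sum.inl ⟨0, by omega⟩⟩
  have hcard : Fintype.card (Fin d ⊕ Fin d) = 2 * d := by
    simp
    omega
  have hqodd : Fintype.card F % 2 = 1 := by
    apply FiniteField.odd_card_of_char_ne_two
    intro h
    apply h2F
    have h3 := CharP.cast_eq_zero F (ringChar F)
    rw [h] at h3
    exact_mod_cast h3
  have hmem_iso : ∀ x : GL (Fin d ⊕ Fin d) F, x ∈ Cfsg.Geo.omegaGL Q →
      x ∈ Cfsg.isometryGroup F Q := by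
    intro x hx
    obtain ⟨y, -, rfl⟩ := Subgroup.mem_map.mp hx
    exact y.2
  have hiso : ∀ x : GL (Fin d ⊕ Fin d) F, x ∈ Cfsg.Geo.omegaGL Q →
      ∀ v, Q ((x : Matrix (Fin d ⊕ Fin d) (Fin d ⊕ Fin d) F) *ᵥ v) = Q v :=
    fun x hx v => hmem_iso x hx v v
  have hone : ∀ z : F, ((z • (1 : Matrix (Fin d ⊕ Fin d) (Fin d ⊕ Fin d) F)) *
      (z • (1 : Matrix (Fin d ⊕ Fin d) (Fin d ⊕ Fin d) F))) =
      (z * z) • (1 : Matrix (Fin d ⊕ Fin d) (Fin d ⊕ Fin d) F) := by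
    intro z
    rw [Matrix.smul_mul, Matrix.mul_smul, Matrix.one_mul, smul_smul]
  have hscal_inj : ∀ a b : F, a • (1 : Matrix (Fin d ⊕ Fin d) (Fin d ⊕ Fin d) F) =
      b • (1 : Matrix (Fin d ⊕ Fin d) (Fin d ⊕ Fin d) F) → a = b := by
    intro a b hab
    obtain ⟨i⟩ := hne
    have := congrFun (congrFun hab i) i
    simpa using this
  -- elements with square `-1` are not scalar
  have hnonscal : ∀ x : GL (Fin d ⊕ Fin d) F, x ∈ Cfsg.Geo.omegaGL Q →
      (x : Matrix (Fin d ⊕ Fin d) (Fin d ⊕ Fin d) F) *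
        (x : Matrix (Fin d ⊕ Fin d) (Fin d ⊕ Fin d) F) = -1 →
      ∀ z : F, (x : Matrix (Fin d ⊕ Fin d) (Fin d ⊕ Fin d) F) ≠
        z • (1 : Matrix (Fin d ⊕ Fin d) (Fin d ⊕ Fin d) F) := by
    intro x hxΩ hxx z hz
    have hzz : z * z = 1 := hS F (Fin d ⊕ Fin d) Q hQ z (by intro v; rw [← hz]; exact hiso x hxΩ v)
    rw [hz, hone, hzz, one_smul] at hxx
    have h3 : (1 : F) • (1 : Matrix (Fin d ⊕ Fin d) (Fin d ⊕ Fin d) F) =
        (-1 : F) • (1 : Matrix (Fin d ⊕ Fin d) (Fin d ⊕ Fin d) F) := by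
      rw [one_smul, neg_one_smul]; exact hxx
    have h11 := hscal_inj _ _ h3
    apply h2F
    linear_combination h11
  -- reduction to the elements with square `-1`
  have hred : AllFix Q m 2 ↔ ∀ x : GL (Fin d ⊕ Fin d) F, x ∈ Cfsg.Geo.omegaGL Q →
      (x : Matrix (Fin d ⊕ Fin d) (Fin d ⊕ Fin d) F) *
        (x : Matrix (Fin d ⊕ Fin d) (Fin d ⊕ Fin d) F) = -1 →
      ∃ W : Submodule F (Fin d ⊕ Fin d → F), (Module.finrank F ↥W = m ∧
        Cfsg.Geo.IsNondegenerateOn (QuadraticMap.polar Q) W ∧ ¬ Cfsg.Geo.IsPlusTypeOn Q W) ∧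
        W.map (Matrix.toLin' (x : Matrix (Fin d ⊕ Fin d) (Fin d ⊕ Fin d) F)) ≤ W := by
    constructor
    · intro h x hxΩ hxx
      exact h x hxΩ ⟨-1, by rw [neg_one_smul]; simpa [pow_two] using hxx⟩ (hnonscal x hxΩ hxx)
    · rintro h x hxΩ ⟨z, hz⟩ hns
      have hxi := hmem_iso x hxΩ
      have hxx : (x : Matrix (Fin d ⊕ Fin d) (Fin d ⊕ Fin d) F) *
          (x : Matrix (Fin d ⊕ Fin d) (Fin d ⊕ Fin d) F) =
          z • (1 : Matrix (Fin d ⊕ Fin d) (Fin d ⊕ Fin d) F) := by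
        rw [← hz]; simp [pow_two]
      have hzz : z * z = 1 := hS F (Fin d ⊕ Fin d) Q hQ z (by
        intro v
        rw [← hxx, ← Matrix.mulVec_mulVec, hiso x hxΩ, hiso x hxΩ])
      have hz1 : z = 1 ∨ z = -1 := by
        have : (z - 1) * (z + 1) = 0 := by linear_combination hzz
        rcases mul_eq_zero.mp this with h | h
        · left; linear_combination h
        · right; linear_combination h
      rcases hz1 with rfl | rfl
      · have hx2 : x ^ 2 = 1 := by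
          apply Units.ext
          rw [hz, one_smul]; rfl
        exact hInvol F (Fin d ⊕ Fin d) Q hQ h2F x hxi hx2 m hmev hm2 (by rw [hcard]; omega)
      · exact h x hxΩ (by rw [hxx, neg_one_smul])
  rw [hred]
  have hq4 : Fintype.card F % 4 = 1 ∨ Fintype.card F % 4 = 3 := by omega
  rcases hq4 with hq1 | hq3
  · -- `-1` is a square
    have hsq : IsSquare (-1 : F) := FiniteField.isSquare_neg_one_iff.mpr (by omega)
    obtain ⟨s, hs⟩ := hsq
    have hnofix : ∀ x : GL (Fin d ⊕ Fin d) F, x ∈ Cfsg.Geo.omegaGL Q →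
        (x : Matrix (Fin d ⊕ Fin d) (Fin d ⊕ Fin d) F) *
          (x : Matrix (Fin d ⊕ Fin d) (Fin d ⊕ Fin d) F) = -1 →
        ¬ ∃ W : Submodule F (Fin d ⊕ Fin d → F), (Module.finrank F ↥W = m ∧
          Cfsg.Geo.IsNondegenerateOn (QuadraticMap.polar Q) W ∧ ¬ Cfsg.Geo.IsPlusTypeOn Q W) ∧
          W.map (Matrix.toLin' (x : Matrix (Fin d ⊕ Fin d) (Fin d ⊕ Fin d) F)) ≤ W := by
      rintro x hxΩ hxx ⟨W, ⟨-, hWnd, hWnp⟩, hWinv⟩
      exact hWnp (hN1 F (Fin d ⊕ Fin d) Q hQ h2F s hs.symm _ (hiso x hxΩ) hxx W hWinv hWnd)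
    constructor
    · intro h
      right
      by_contra hcon
      have h' : Even d ∨ Fintype.card F % 8 = 1 := by
        by_contra h'
        push Not at h'
        exact hcon ⟨Nat.not_even_iff_odd.mp h'.1, h'.2⟩
      obtain ⟨x, hxΩ, hxx⟩ := hOm1 F (Nat.odd_iff.mpr hqodd) d h'
      rw [← hQdef] at hxΩ
      exact hnofix x hxΩ hxx (h x hxΩ hxx)
    · rintro (⟨-, h3, -⟩ | ⟨hdodd, hq8⟩)
      · omega
      · intro x hxΩ hxx
        exfalso
        rw [hQdef] at hxΩ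
        exact hOm2B F (by omega) d hdodd x hxΩ hxx
  · -- `-1` is not a square
    have hns : ¬ IsSquare (-1 : F) := by
      rw [FiniteField.isSquare_neg_one_iff]
      omega
    rcases Nat.even_or_odd d with hde | hdo
    · have hTopNd : Nd Q ⊤ := by
        intro w _ hw
        obtain ⟨⟨y, hy⟩, ⟨y', hy'⟩⟩ := hQ.nondegenerate w hw
        exact ⟨⟨y, Submodule.mem_top, hy⟩, ⟨y', Submodule.mem_top, hy'⟩⟩
      have hTopDim : Module.finrank F (⊤ : Submodule F (Fin d ⊕ Fin d → F)) = 2 * d := by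
        rw [finrank_top, Module.finrank_fintype_fun_eq_card, hcard]
      constructor
      · intro h
        left
        refine ⟨hde, hq3, ?_⟩
        by_contra hm4
        have h4 : 4 ∣ m := by
          obtain ⟨k, hk⟩ := hmev
          omega
        obtain ⟨x, hxΩ, hxx⟩ := hOm1 F (Nat.odd_iff.mpr hqodd) d (Or.inl hde)
        rw [← hQdef] at hxΩ
        obtain ⟨W, ⟨hWd, hWnd, hWnp⟩, hWinv⟩ := h x hxΩ hxx
        have h5 := (hN3 F (Fin d ⊕ Fin d) Q hQ h2F hns _ (hiso x hxΩ) hxx W hWinv hWnd).1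
        rw [hWd] at h5
        exact hWnp (h5.mpr h4)
      · rintro (⟨-, -, hm4⟩ | ⟨hdodd, -⟩)
        · intro x hxΩ hxx
          obtain ⟨W', -, hW'inv, hW'nd, hW'dim⟩ :=
            (hN3 F (Fin d ⊕ Fin d) Q hQ h2F hns _ (hiso x hxΩ) hxx ⊤ le_top hTopNd).2 m hmev
              (by rw [hTopDim]; omega)
          refine ⟨W', ⟨hW'dim, hW'nd, ?_⟩, hW'inv⟩
          intro hplus
          have h5 := (hN3 F (Fin d ⊕ Fin d) Q hQ h2F hns _ (hiso x hxΩ) hxx W' hW'inv hW'nd).1.mp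
            hplus
          rw [hW'dim] at h5
          omega
        · exact absurd hde (Nat.not_even_iff_odd.mpr hdodd)
    · constructor
      · intro _
        right
        exact ⟨hdo, by omega⟩
      · intro _ x hxΩ hxx
        exfalso
        rw [hQdef] at hxΩ
        have h6 := hiso x (by rw [hQdef]; exact hxΩ)
        rw [hQdef] at h6
        exact hOm2A F hq3 d hdo _ h6 hxx

end Cfsg.Agent.Lib.Helper52.OElp
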