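-- Team project OELP (S5988), package [R2] (helper52): the unconditional statement.
import Mathlib
import Cfsg.Agent.Lib.Helper52.OElp.R2
import Cfsg.Agent.Lib.Helper52.OElp.Neg1
import Cfsg.Agent.Lib.Helper52.OElp.Neg3
import Cfsg.Agent.Lib.Helper52.OElp.PlusQE
import Cfsg.Agent.Lib.Helper8.OEll.Invol
import Cfsg.Agent.Lib.Helper38.OPar.Om1
import Cfsg.Agent.Lib.Helper80.OPar.Om2A
import Cfsg.Agent.Lib.Helper85.OPar.Om2B
import Cfsg.Agent.Lib.Helper45.OPar.Scal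

set_option autoImplicit false

namespace Cfsg.Agent.Lib.Helper52.OElp

universe u

/-- [R2], unconditional -/
theorem pkgR2 : Cfsg.Agent.Lib.Helper44.OElp.PkgR2.{u} :=
  pkgR2_of Cfsg.Agent.Lib.Helper8.OEll.pkgInvolM pkgNeg1 pkgNeg3
    Cfsg.Agent.Lib.Helper38.OPar.pkgOm1 Cfsg.Agent.Lib.Helper80.OPar.pkgOm2A
    Cfsg.Agent.Lib.Helper85.OPar.pkgOm2B Cfsg.Agent.Lib.Helper45.OPar.pkgScal pkgPlusQE

example : Cfsg.Agent.Lib.Helper44.OElp.PkgR2.{0} := pkgR2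
example : Cfsg.Agent.Lib.Helper44.OElp.PkgR2.{3} := pkgR2

end Cfsg.Agent.Lib.Helper52.OElp
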